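/-
J₃ as a permutation group of degree 6156 (helper16).
-/
import Cfsg.Agent.Lib.ToddCox.J3O.Main
import Cfsg.Agent.Lib.ToddCox.PermPkg
import Cfsg.Prelude.Def_Sporadic

set_option autoImplicit false

namespace Cfsg.Agent.Lib.ToddCox.J3Perm

open Cfsg.Agent.Lib.ToddCox.J3T (rels tab sg)

theorem main : ∃ H : Subgroup (Equiv.Perm (Fin 6156)), Cfsg.IsJ3 H ∧ MulAction.IsPretransitive H (Fin 6156) ∧
    Nat.card (MulAction.stabilizer H (0 : Fin 6156)) = 8160 := by
  obtain ⟨ρ, hρ, hinj, hcard⟩ := J3O.rep_facts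
  have htrans := rep_trans hρ (by norm_num) J3T.reach
  have htrans' : ∀ i : Fin 6156, ∃ g, ρ g 0 = i := htrans
  refine ⟨ρ.range, ?_, range_pretransitive ρ htrans', ?_⟩
  · obtain ⟨h1, h2⟩ := simple_range_of_inj J3O.main.1 ρ hinj
    exact ⟨h1, h2.trans hcard⟩
  · have h := card_stabilizer_mul ρ hinj htrans'
    rw [hcard] at h
    omega

end Cfsg.Agent.Lib.ToddCox.J3Perm
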